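-- helper74: U27 (S5999) package [NIEV]: an eigenvector of norm 1 in an invariant non-degenerate
-- subspace.
import Mathlib
import Cfsg.Agent.Lib.Helper37.U27.Defs
import Cfsg.Agent.Lib.Helper45.HermStab

set_option autoImplicit false

namespace Cfsg.Agent.Lib.Helper74.U27

open Matrix Cfsg.Agent.Lib.Helper37.U27 Cfsg.Agent.Lib.Helper45

universe u

section

variable {F : Type u} [Field F] [Fintype F] {q : ℕ}

theorem herm_zero_right' (hF : Fintype.card F = q ^ 2) (n : ℕ) (u : Fin n → F) :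
    Cfsg.hermForm n F q u 0 = 0 := by
  have hq := two_le_q hF
  simp [herm_def, zero_pow (by omega : q ≠ 0)]

theorem herm_sum_right' (hF : Fintype.card F = q ^ 2) (n : ℕ) (u : Fin n → F) {ι : Type*}
    (s : Finset ι) (f : ι → Fin n → F) :
    Cfsg.hermForm n F q u (∑ i ∈ s, f i) = ∑ i ∈ s, Cfsg.hermForm n F q u (f i) := by
  classical
  induction s using Finset.induction_on with
  | empty => simp [herm_zero_right' hF]
  | insert a s ha ih => rw [Finset.sum_insert ha, herm_add_right hF, ih, Finset.sum_insert ha]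

theorem herm_sum_left' (hF : Fintype.card F = q ^ 2) (n : ℕ) (v : Fin n → F) {ι : Type*}
    (s : Finset ι) (f : ι → Fin n → F) :
    Cfsg.hermForm n F q (∑ i ∈ s, f i) v = ∑ i ∈ s, Cfsg.hermForm n F q (f i) v := by
  classical
  induction s using Finset.induction_on with
  | empty => simp [herm_zero_left hF]
  | insert a s ha ih => rw [Finset.sum_insert ha, herm_add_left, ih, Finset.sum_insert ha]

/-- a primitive `m`-th root of unity for `m ∣ q + 1`. -/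
theorem exists_primitive_root (hF : Fintype.card F = q ^ 2) {m : ℕ} (hmq : m ∣ q + 1) :
    ∃ ζ : F, IsPrimitiveRoot ζ m := by
  classical
  have hq := two_le_q hF
  obtain ⟨g, hg⟩ := IsCyclic.exists_ofOrder_eq_natCard (α := Fˣ)
  have hcard : Nat.card Fˣ = q ^ 2 - 1 := by
    rw [Nat.card_eq_fintype_card, Fintype.card_units, hF]
  have hdvd : m ∣ q ^ 2 - 1 := by
    rw [sq_sub_one_factor q (by omega)]
    exact Dvd.dvd.mul_left hmq _
  obtain ⟨c, hc⟩ := hdvd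
  have hprim : IsPrimitiveRoot g (q ^ 2 - 1) := by
    rw [← hcard, ← hg]
    exact IsPrimitiveRoot.orderOf g
  have hpos : 0 < q ^ 2 - 1 := by
    have : 4 ≤ q ^ 2 := by nlinarith
    omega
  have h1 : IsPrimitiveRoot (g ^ c) m := hprim.pow hpos (by rw [hc, mul_comm])
  exact ⟨((g ^ c : Fˣ) : F), IsPrimitiveRoot.coe_units_iff.mpr h1⟩

/-- the eigenvectors in `W`. -/
def eigW (W : Submodule F (Fin 3 → F)) (Y : Matrix (Fin 3) (Fin 3) F) (c : F) :
    Submodule F (Fin 3 → F) where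
  carrier := {u | u ∈ W ∧ Y *ᵥ u = c • u}
  add_mem' := by
    rintro a b ⟨ha, ha'⟩ ⟨hb, hb'⟩
    exact ⟨W.add_mem ha hb, by rw [Matrix.mulVec_add, ha', hb', smul_add]⟩
  zero_mem' := ⟨W.zero_mem, by simp⟩
  smul_mem' := by
    rintro t a ⟨ha, ha'⟩
    exact ⟨W.smul_mem t ha, by rw [Matrix.mulVec_smul, ha', smul_comm]⟩

omit [Fintype F] in
theorem mem_eigW (W : Submodule F (Fin 3 → F)) (Y : Matrix (Fin 3) (Fin 3) F) (c : F)
    (u : Fin 3 → F) : u ∈ eigW W Y c ↔ u ∈ W ∧ Y *ᵥ u = c • u := Iff.rfl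

end

theorem pkgNIEV_of (hP : PkgProj.{u}) : PkgNIEV.{u} := by
  intro F _ _ q m y W hF hm hmq hy hym hWinv hWne hWnd
  obtain ⟨Y, hYdef⟩ : ∃ Y : Matrix (Fin 3) (Fin 3) F, Y = (y : Matrix (Fin 3) (Fin 3) F) :=
    ⟨_, rfl⟩
  obtain ⟨ζ, hζ⟩ := exists_primitive_root hF hmq
  have hζq : ζ ^ (q + 1) = 1 := by
    obtain ⟨c, hc⟩ := hmq
    rw [hc, pow_mul, hζ.pow_eq_one, one_pow]
  have hYm : Y ^ m = 1 := by
    rw [hYdef, ← Units.val_pow_eq_pow_val, hym, Units.val_one]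
  obtain ⟨P, hsum, heig, hinv⟩ := hP F Y m ζ hζ hm hYm
  have hYinv : ∀ u ∈ W, Y *ᵥ u ∈ W := by rw [hYdef]; exact hWinv
  have hX : ∀ u v, Cfsg.hermForm 3 F q (Y *ᵥ u) (Y *ᵥ v) = Cfsg.hermForm 3 F q u v := by
    rw [hYdef]; exact hy
  have hPe : ∀ (j : Fin m) (u : Fin 3 → F), Y *ᵥ (P j *ᵥ u) = ζ ^ (j : ℕ) • (P j *ᵥ u) := by
    intro j u
    rw [Matrix.mulVec_mulVec, heig, Matrix.smul_mulVec]
  have hdecomp : ∀ u : Fin 3 → F, u = ∑ j, P j *ᵥ u := by
    intro u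
    rw [← Matrix.sum_mulVec, hsum, Matrix.one_mulVec]
  have hPmem : ∀ j : Fin m, ∀ u ∈ W, P j *ᵥ u ∈ eigW W Y (ζ ^ (j : ℕ)) := by
    intro j u hu
    exact ⟨hinv W hYinv j u hu, hPe j u⟩
  -- orthogonality of the eigenspaces
  have horth : ∀ (j k : Fin m) (a b : Fin 3 → F), j ≠ k → Y *ᵥ a = ζ ^ (j : ℕ) • a →
      Y *ᵥ b = ζ ^ (k : ℕ) • b → Cfsg.hermForm 3 F q a b = 0 := by
    intro j k a b hjk ha hb
    have e := hX a b
    rw [ha, hb, herm_smul_left, herm_smul_right] at e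
    have hc1 : ζ ^ (j : ℕ) * (ζ ^ (k : ℕ)) ^ q ≠ 1 := by
      intro hc
      apply hjk
      apply Fin.ext
      apply hζ.pow_inj j.2 k.2
      have h2 : (ζ ^ (k : ℕ)) ^ q * ζ ^ (k : ℕ) = 1 := by
        rw [← pow_succ, ← pow_mul, mul_comm, pow_mul, hζq, one_pow]
      calc ζ ^ (j : ℕ) = ζ ^ (j : ℕ) * ((ζ ^ (k : ℕ)) ^ q * ζ ^ (k : ℕ)) := by rw [h2, mul_one]
        _ = (ζ ^ (j : ℕ) * (ζ ^ (k : ℕ)) ^ q) * ζ ^ (k : ℕ) := by ring
        _ = ζ ^ (k : ℕ) := by rw [hc, one_mul]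
    have e' : (1 - ζ ^ (j : ℕ) * (ζ ^ (k : ℕ)) ^ q) * Cfsg.hermForm 3 F q a b = 0 := by
      linear_combination (-1 : F) * e
    rcases mul_eq_zero.mp e' with h | h
    · exact absurd (sub_eq_zero.mp h).symm hc1
    · exact h
  -- every eigenspace in `W` is non-degenerate
  have hnd : ∀ j : Fin m, ∀ u ∈ eigW W Y (ζ ^ (j : ℕ)),
      (∀ v ∈ eigW W Y (ζ ^ (j : ℕ)), Cfsg.hermForm 3 F q u v = 0) → u = 0 := by
    intro j u hu hall
    by_contra hu0
    obtain ⟨u', hu'W, hne⟩ := hWnd u hu.1 hu0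
    apply hne
    rw [hdecomp u', herm_sum_right' hF]
    apply Finset.sum_eq_zero
    intro k _
    by_cases hjk : j = k
    · rw [← hjk]
      exact hall _ (hPmem j u' hu'W)
    · exact horth j k u _ hjk hu.2 (hPe k u')
  -- some eigenspace is non-zero
  obtain ⟨w, hwW, hw0⟩ := (Submodule.ne_bot_iff W).mp hWne
  have hex : ∃ j : Fin m, eigW W Y (ζ ^ (j : ℕ)) ≠ ⊥ := by
    by_contra hall
    push Not at hall
    apply hw0
    rw [hdecomp w]
    apply Finset.sum_eq_zero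
    intro j _
    have h1 := hPmem j w hwW
    rw [hall j, Submodule.mem_bot] at h1
    exact h1
  obtain ⟨j, hj⟩ := hex
  obtain ⟨v, hv, hv1⟩ := exists_norm_one_mem hF (eigW W Y (ζ ^ (j : ℕ))) (hnd j) hj
  refine ⟨v, hv.1, ζ ^ (j : ℕ), ?_, ?_, hv1⟩
  · rw [← pow_mul, mul_comm, pow_mul, hζ.pow_eq_one, one_pow]
  · rw [← hYdef]
    exact hv.2

end Cfsg.Agent.Lib.Helper74.U27
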