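-- helper74: U27 (S5999) package [ONEB]: an orthonormal eigenbasis.
import Mathlib
import Cfsg.Agent.Lib.Helper37.U27.Defs
import Cfsg.Agent.Lib.Helper45.HermBasic
import Cfsg.Agent.Lib.Helper74.U27.NIEV

set_option autoImplicit false

namespace Cfsg.Agent.Lib.Helper74.U27

open Matrix Cfsg.Agent.Lib.Helper37.U27 Cfsg.Agent.Lib.Helper45

universe u

section

variable {F : Type u} [Field F] [Fintype F]

/-- `u ↦ h(u, w)` as a linear map. -/
def hermL (q : ℕ) (w : Fin 3 → F) : (Fin 3 → F) →ₗ[F] F where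
  toFun u := Cfsg.hermForm 3 F q u w
  map_add' u u' := herm_add_left 3 u u' w
  map_smul' c u := by rw [herm_smul_left]; rfl

theorem hermL_apply (q : ℕ) (w u : Fin 3 → F) : hermL q w u = Cfsg.hermForm 3 F q u w := rfl

/-- the next vector of an orthonormal eigen-family. -/
theorem oneb_step (hN : PkgNIEV.{u}) {q m : ℕ} (y : GL (Fin 3) F) (hF : Fintype.card F = q ^ 2)
    (hm : 0 < m) (hmq : m ∣ q + 1) (hy : y ∈ Cfsg.GU 3 F q) (hym : y ^ m = 1) (k : ℕ) (hk : k < 3)
    (s : Fin k → Fin 3 → F) (l : Fin k → F)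
    (hon : ∀ i j, Cfsg.hermForm 3 F q (s i) (s j) = if i = j then 1 else 0)
    (hl : ∀ i, l i ^ m = 1)
    (heig : ∀ i, (y : Matrix (Fin 3) (Fin 3) F) *ᵥ s i = l i • s i) :
    ∃ (v : Fin 3 → F) (l' : F), (∀ i, Cfsg.hermForm 3 F q v (s i) = 0) ∧ l' ^ m = 1 ∧
      (y : Matrix (Fin 3) (Fin 3) F) *ᵥ v = l' • v ∧ Cfsg.hermForm 3 F q v v = 1 := by
  have hq0 : q ≠ 0 := by
    have := two_le_q hF
    omega
  have hX : ∀ u v, Cfsg.hermForm 3 F q ((y : Matrix (Fin 3) (Fin 3) F) *ᵥ u)
      ((y : Matrix (Fin 3) (Fin 3) F) *ᵥ v) = Cfsg.hermForm 3 F q u v := hy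
  obtain ⟨W, hWdef⟩ : ∃ W : Submodule F (Fin 3 → F),
      W = LinearMap.ker (LinearMap.pi (fun i => hermL q (s i))) := ⟨_, rfl⟩
  have hmem : ∀ u, u ∈ W ↔ ∀ i, Cfsg.hermForm 3 F q u (s i) = 0 := by
    intro u
    rw [hWdef, LinearMap.mem_ker]
    constructor
    · intro h i
      have := congrFun h i
      exact this
    · intro h
      funext i
      exact h i
  have hWne : W ≠ ⊥ := by
    rw [hWdef]
    apply LinearMap.ker_ne_bot_of_finrank_lt
    rw [Module.finrank_fin_fun, Module.finrank_fin_fun]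
    exact hk
  have hWinv : ∀ u ∈ W, (y : Matrix (Fin 3) (Fin 3) F) *ᵥ u ∈ W := by
    intro u hu
    rw [hmem] at hu ⊢
    intro i
    have e := hX u (s i)
    rw [heig i, herm_smul_right, hu i] at e
    have hli : l i ≠ 0 := by
      intro h0
      have := hl i
      rw [h0, zero_pow (by omega)] at this
      exact zero_ne_one this
    rcases mul_eq_zero.mp e with h | h
    · exact absurd h (pow_ne_zero q hli)
    · exact h
  have hWnd : ∀ u ∈ W, u ≠ 0 → ∃ u' ∈ W, Cfsg.hermForm 3 F q u u' ≠ 0 := by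
    intro u hu hu0
    obtain ⟨i0, hi0⟩ : ∃ i, u i ≠ 0 := by
      by_contra hcon
      push Not at hcon
      exact hu0 (funext hcon)
    rw [hmem] at hu
    refine ⟨Pi.single i0 1 - ∑ i, Cfsg.hermForm 3 F q (Pi.single i0 1) (s i) • s i, ?_, ?_⟩
    · rw [hmem]
      intro j
      rw [herm_sub_left, herm_sum_left' hF]
      simp only [herm_smul_left, hon, mul_ite, mul_one, mul_zero, Finset.sum_ite_eq',
        Finset.mem_univ, if_true, sub_self]
    · rw [herm_sub_right hF, herm_sum_right' hF]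
      simp only [herm_smul_right, hu, mul_zero, Finset.sum_const_zero, sub_zero]
      rw [herm_single_right hq0]
      exact hi0
  obtain ⟨v, hvW, l', hl', hev, hv1⟩ := hN F q m y W hF hm hmq hy hym hWinv hWne hWnd
  exact ⟨v, l', (hmem v).mp hvW, hl', hev, hv1⟩

end

theorem pkgONEB_of (hN : PkgNIEV.{u}) : PkgONEB.{u} := by
  intro F _ _ q m y hF hm hmq hy hym
  have hq0 : q ≠ 0 := by
    have := two_le_q hF
    omega
  have main : ∀ k, k ≤ 3 → ∃ (s : Fin k → Fin 3 → F) (l : Fin k → F),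
      (∀ i j, Cfsg.hermForm 3 F q (s i) (s j) = if i = j then 1 else 0) ∧ (∀ i, l i ^ m = 1) ∧
      ∀ i, (y : Matrix (Fin 3) (Fin 3) F) *ᵥ s i = l i • s i := by
    intro k
    induction k with
    | zero =>
      intro _
      exact ⟨Fin.elim0, Fin.elim0, fun i => i.elim0, fun i => i.elim0, fun i => i.elim0⟩
    | succ k ih =>
      intro hk
      obtain ⟨s, l, hon, hl, heig⟩ := ih (by omega)
      obtain ⟨v, l', hvs, hl', hev, hv1⟩ := oneb_step hN y hF hm hmq hy hym k (by omega) s l hon hl heig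
      refine ⟨(Fin.cons v s : Fin (k + 1) → Fin 3 → F), (Fin.cons l' l : Fin (k + 1) → F),
        ?_, ?_, ?_⟩
      · intro i j
        rcases Fin.eq_zero_or_eq_succ i with rfl | ⟨i', rfl⟩ <;>
          rcases Fin.eq_zero_or_eq_succ j with rfl | ⟨j', rfl⟩
        · rw [Fin.cons_zero, hv1, if_pos rfl]
        · rw [Fin.cons_zero, Fin.cons_succ, hvs j', if_neg (Fin.succ_ne_zero j').symm]
        · rw [Fin.cons_zero, Fin.cons_succ, ← herm_conj hF, hvs i', zero_pow hq0,
            if_neg (Fin.succ_ne_zero i')]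
        · rw [Fin.cons_succ, Fin.cons_succ, hon i' j']
          by_cases h : i' = j'
          · rw [if_pos h, if_pos (by rw [h])]
          · rw [if_neg h, if_neg (fun h' => h (Fin.succ_inj.mp h'))]
      · intro i
        rcases Fin.eq_zero_or_eq_succ i with rfl | ⟨i', rfl⟩
        · rw [Fin.cons_zero]; exact hl'
        · rw [Fin.cons_succ]; exact hl i'
      · intro i
        rcases Fin.eq_zero_or_eq_succ i with rfl | ⟨i', rfl⟩
        · rw [Fin.cons_zero, Fin.cons_zero]; exact hev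
        · rw [Fin.cons_succ, Fin.cons_succ]; exact heig i'
  obtain ⟨v, d, hon, hd, hev⟩ := main 3 le_rfl
  exact ⟨v, d, hon, hd, hev⟩

end Cfsg.Agent.Lib.Helper74.U27
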